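import Mathlib

/-!
# A pairing lemma for commuting operators

If `S` is a commuting set of endomorphisms of a finite dimensional space `U` and `lam` is a
functional such that every nonzero `x` has some `a ∈ S` with `lam (a x) ≠ 0`, then the commutant of
`S` is commutative (it is the algebra generated by `S`).
-/

set_option autoImplicit false

namespace Cfsg.Agent.Lib.FrobRep

theorem commute_of_pairing {k U : Type*} [Field k] [AddCommGroup U] [Module k U]
    [FiniteDimensional k U] (S : Set (Module.End k U)) (hS : ∀ a ∈ S, ∀ b ∈ S, Commute a b)
    (lam : U →ₗ[k] k) (hlam : ∀ x : U, x ≠ 0 → ∃ a ∈ S, lam (a x) ≠ 0)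
    {c d : Module.End k U} (hc : ∀ a ∈ S, Commute a c) (hd : ∀ a ∈ S, Commute a d) :
    Commute c d := by
  classical
  set E : Subalgebra k (Module.End k U) := Algebra.adjoin k S with hE
  have hSE : S ⊆ E := Algebra.subset_adjoin
  -- every element of E commutes with S
  have h1 : E ≤ Subalgebra.centralizer k S := by
    rw [hE]
    apply Algebra.adjoin_le
    intro a ha
    rw [SetLike.mem_coe, Subalgebra.mem_centralizer_iff]
    intro b hb
    exact (hS a ha b hb).symm
  have h2 : ∀ e ∈ E, ∀ a ∈ S, Commute a e := by
    intro e he a ha
    have := (Subalgebra.mem_centralizer_iff k).1 (h1 he) a ha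
    exact this
  have h3 : E ≤ Subalgebra.centralizer k (E : Set (Module.End k U)) := by
    rw [hE]
    apply Algebra.adjoin_le
    intro a ha
    rw [SetLike.mem_coe, Subalgebra.mem_centralizer_iff]
    intro b hb
    exact (h2 b hb a ha).symm.symm.eq ▸ rfl
  have hEcomm : ∀ e ∈ E, ∀ f ∈ E, Commute e f := by
    intro e he f hf
    have := (Subalgebra.mem_centralizer_iff k).1 (h3 hf) e he
    exact this
  -- the two maps
  let Φ : E →ₗ[k] Module.Dual k U :=
    { toFun := fun e => lam.comp (e : Module.End k U)
      map_add' := fun e f => by
        ext x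
        simp
      map_smul' := fun r e => by
        ext x
        simp }
  let Ψ : U →ₗ[k] Module.Dual k E :=
    { toFun := fun x =>
        { toFun := fun e => lam ((e : Module.End k U) x)
          map_add' := fun e f => by simp
          map_smul' := fun r e => by simp }
      map_add' := fun x y => by
        ext e
        simp
      map_smul' := fun r x => by
        ext e
        simp }
  have hΨ : Function.Injective Ψ := by
    rw [← LinearMap.ker_eq_bot, LinearMap.ker_eq_bot']
    intro x hx
    by_contra hne
    obtain ⟨a, ha, hax⟩ := hlam x hne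
    apply hax
    have := LinearMap.congr_fun hx (⟨a, hSE ha⟩ : E)
    exact this
  have hΦ : Function.Injective Φ := by
    rw [← LinearMap.ker_eq_bot, LinearMap.ker_eq_bot']
    rintro ⟨e, he⟩ hx
    have hx' : ∀ x, lam (e x) = 0 := fun x => LinearMap.congr_fun hx x
    ext x
    by_contra hne
    obtain ⟨a, ha, hax⟩ := hlam (e x) hne
    apply hax
    have : a (e x) = e (a x) := by
      have h := (h2 e he a ha).eq
      exact LinearMap.congr_fun h x
    rw [this]
    exact hx' _
  have h4 : Module.finrank k E = Module.finrank k U := by
    apply le_antisymm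
    · have := LinearMap.finrank_le_finrank_of_injective hΦ
      rwa [Subspace.dual_finrank_eq] at this
    · have := LinearMap.finrank_le_finrank_of_injective hΨ
      rwa [Subspace.dual_finrank_eq] at this
  have hΦs : Function.Surjective Φ :=
    (LinearMap.injective_iff_surjective_of_finrank_eq_finrank
      (h4.trans (Subspace.dual_finrank_eq).symm)).1 hΦ
  have key : ∀ c : Module.End k U, (∀ a ∈ S, Commute a c) → c ∈ E := by
    intro c hc
    obtain ⟨⟨u, hu⟩, huc⟩ := hΦs (lam.comp c)
    have huc' : ∀ x, lam (u x) = lam (c x) := fun x => LinearMap.congr_fun huc x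
    have : c = u := by
      ext x
      by_contra hne
      have hne' : c x - u x ≠ 0 := sub_ne_zero.2 hne
      obtain ⟨a, ha, hax⟩ := hlam _ hne'
      apply hax
      have e1 : a (c x) = c (a x) := LinearMap.congr_fun (hc a ha).eq x
      have e2 : a (u x) = u (a x) := LinearMap.congr_fun (h2 u hu a ha).eq x
      rw [map_sub, map_sub, e1, e2, huc', sub_self]
    rw [this]
    exact hu
  exact hEcomm c (key c hc) d (key d hd)

end Cfsg.Agent.Lib.FrobRep
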