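import Mathlib
import Cfsg.Agent.Lib.FrobRep.Pairing
import Cfsg.Agent.Lib.Frobenius.FixedPoint

/-!
# Frobenius groups acting with one dimensional fixed space of the complement

`N` normal nilpotent, `R` a complement acting fixed point freely on `N`, the representation coprime,
and the fixed space of `R` at most one dimensional: then `N` acts commutatively.
-/

set_option autoImplicit false
set_option linter.style.haveILetI false

namespace Cfsg.Agent.Lib.FrobRep

open scoped commutatorElement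

variable {k W G : Type*} [Field k] [AddCommGroup W] [Module k W] [Group G] [Finite G]

/-- average over a finite subgroup. -/
noncomputable def av (ρ : Representation k G W) (B : Subgroup G) : W →ₗ[k] W :=
  letI := Fintype.ofFinite B
  ((Nat.card B : k)⁻¹) • ∑ b : B, ρ (b : G)

theorem av_apply (ρ : Representation k G W) (B : Subgroup G) [Fintype B] (x : W) :
    av ρ B x = ((Nat.card B : k)⁻¹) • ∑ b : B, ρ (b : G) x := by
  unfold av
  rw [LinearMap.smul_apply, LinearMap.sum_apply]
  congr 1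
  apply Finset.sum_congr
  · ext b
    simp
  · intros
    rfl

theorem card_ne_zero_of (hcard : ((Nat.card G : ℕ) : k) ≠ 0) (B : Subgroup G) :
    ((Nat.card B : ℕ) : k) ≠ 0 := by
  intro h
  apply hcard
  have : Nat.card B ∣ Nat.card G := Subgroup.card_subgroup_dvd_card B
  obtain ⟨m, hm⟩ := this
  rw [hm]
  push_cast
  rw [h, zero_mul]

theorem av_fixed (ρ : Representation k G W) (_hcard : ((Nat.card G : ℕ) : k) ≠ 0) (B : Subgroup G)
    (x : W) (b : G) (hb : b ∈ B) : ρ b (av ρ B x) = av ρ B x := by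
  classical
  haveI := Fintype.ofFinite B
  rw [av_apply, map_smul, map_sum]
  congr 1
  have : ∀ c : B, ρ b (ρ (c : G) x) = ρ (((⟨b, hb⟩ : B) * c : B) : G) x := by
    intro c
    simp [map_mul]
  simp only [this]
  exact Fintype.sum_equiv (Equiv.mulLeft (⟨b, hb⟩ : B)) _ _ (fun _ => rfl)

theorem av_eq_of_fixed (ρ : Representation k G W) (hcard : ((Nat.card G : ℕ) : k) ≠ 0)
    (B : Subgroup G) (x : W) (hx : ∀ b ∈ B, ρ b x = x) : av ρ B x = x := by
  classical
  haveI := Fintype.ofFinite B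
  rw [av_apply]
  have : ∑ b : B, ρ (b : G) x = (Nat.card B : k) • x := by
    have h0 : ∀ b : B, ρ (b : G) x = x := fun b => hx b b.2
    simp only [h0]
    rw [Finset.sum_const, Finset.card_univ, Nat.card_eq_fintype_card, Nat.cast_smul_eq_nsmul]
  rw [this, smul_smul, inv_mul_cancel₀ (card_ne_zero_of hcard B), one_smul]

theorem sub_av_mem_ker (ρ : Representation k G W) (hcard : ((Nat.card G : ℕ) : k) ≠ 0)
    (B : Subgroup G) (x : W) : x - av ρ B x ∈ LinearMap.ker (av ρ B) := by
  rw [LinearMap.mem_ker, map_sub, av_eq_of_fixed ρ hcard B _ (av_fixed ρ hcard B x), sub_self]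

theorem av_conj (ρ : Representation k G W) (B : Subgroup G) [B.Normal] (g : G) (x : W) :
    ρ g (av ρ B x) = av ρ B (ρ g x) := by
  classical
  haveI := Fintype.ofFinite B
  rw [av_apply, av_apply, map_smul, map_sum]
  congr 1
  let e : B ≃ B :=
    { toFun := fun b => ⟨g * b * g⁻¹, ‹B.Normal›.conj_mem b b.2 g⟩
      invFun := fun b => ⟨g⁻¹ * b * g, by
        have := ‹B.Normal›.conj_mem b b.2 g⁻¹
        simpa using this⟩
      left_inv := fun b => by
        ext
        simp [mul_assoc]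
      right_inv := fun b => by
        ext
        simp [mul_assoc] }
  refine Fintype.sum_equiv e _ _ (fun b => ?_)
  show ρ g (ρ (b : G) x) = ρ (g * b * g⁻¹) (ρ g x)
  simp only [map_mul, Module.End.mul_apply]
  rw [← Module.End.mul_apply (ρ g⁻¹), ← map_mul]
  simp

theorem ker_av_invariant (ρ : Representation k G W) (B : Subgroup G) [B.Normal] (g : G) (x : W)
    (hx : x ∈ LinearMap.ker (av ρ B)) : ρ g x ∈ LinearMap.ker (av ρ B) := by
  rw [LinearMap.mem_ker] at hx ⊢
  rw [← av_conj, hx, map_zero]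

/-- The key fixed point lemma: a nonzero invariant subspace without `N`-fixed points has an
`R`-fixed point. -/
theorem exists_fixed (ρ : Representation k G W) (hcard : ((Nat.card G : ℕ) : k) ≠ 0)
    {N R : Subgroup G} [N.Normal] (hc : N.IsComplement' R)
    (hfpf : ∀ h ∈ R, h ≠ 1 → ∀ n ∈ N, h * n = n * h → n = 1)
    (U : Submodule k W) (hU : ∀ g x, x ∈ U → ρ g x ∈ U)
    (hN : ∀ x ∈ U, (∀ n ∈ N, ρ n x = x) → x = 0) (hne : U ≠ ⊥) :
    ∃ x ∈ U, x ≠ 0 ∧ ∀ h ∈ R, ρ h x = x := by
  classical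
  by_contra hcon
  push Not at hcon
  -- the action on `Multiplicative U`
  letI inst : MulDistribMulAction G (Multiplicative U) :=
    { smul := fun g x => Multiplicative.ofAdd ⟨ρ g (Multiplicative.toAdd x : U), hU g _ (Multiplicative.toAdd x : U).2⟩
      one_smul := fun x => by
        apply Multiplicative.toAdd.injective
        apply Subtype.ext
        show ρ 1 ((Multiplicative.toAdd x : U) : W) = _
        simp
      mul_smul := fun g h x => by
        apply Multiplicative.toAdd.injective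
        apply Subtype.ext
        show ρ (g * h) ((Multiplicative.toAdd x : U) : W) = ρ g (ρ h ((Multiplicative.toAdd x : U) : W))
        simp
      smul_mul := fun g x y => by
        apply Multiplicative.toAdd.injective
        apply Subtype.ext
        show ρ g (((Multiplicative.toAdd x : U) : W) + ((Multiplicative.toAdd y : U) : W)) = _ + _
        rw [map_add]
        rfl
      smul_one := fun g => by
        apply Multiplicative.toAdd.injective
        apply Subtype.ext
        show ρ g (0 : W) = 0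
        simp }
  have hsm : ∀ (g : G) (x : Multiplicative U),
      ((Multiplicative.toAdd (g • x) : U) : W) = ρ g ((Multiplicative.toAdd x : U) : W) :=
    fun _ _ => rfl
  have hone : ∀ x : Multiplicative U, ((Multiplicative.toAdd x : U) : W) = 0 → x = 1 := by
    intro x hx
    apply Multiplicative.toAdd.injective
    exact Subtype.ext hx
  have key := Cfsg.Agent.Lib.Frobenius.FixedPoint.pow_card_kernel_eq_one (F := G)
    (V := Multiplicative U) (N := N) (H := R) hc hfpf
    (fun v hv => by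
      apply hone
      apply hN _ (Multiplicative.toAdd v : U).2
      intro n hn
      have := congrArg (fun y : Multiplicative U => ((Multiplicative.toAdd y : U) : W)) (hv n hn)
      simpa only [hsm] using this)
    (fun v hv => by
      apply hone
      by_contra h0
      obtain ⟨h, hh, hne⟩ := hcon _ (Multiplicative.toAdd v : U).2 h0
      apply hne
      have := congrArg (fun y : Multiplicative U => ((Multiplicative.toAdd y : U) : W)) (hv h hh)
      simpa only [hsm] using this)
  apply hne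
  rw [Submodule.eq_bot_iff]
  intro x hx
  have h1 := key (Multiplicative.ofAdd (⟨x, hx⟩ : U))
  have h2 : (Nat.card N) • (⟨x, hx⟩ : U) = 0 := by
    have := congrArg Multiplicative.toAdd h1
    simpa using this
  have h3 : (Nat.card N) • x = 0 := by
    have := congrArg (Subtype.val) h2
    simpa using this
  rw [← Nat.cast_smul_eq_nsmul k] at h3
  exact (smul_eq_zero.1 h3).resolve_left (card_ne_zero_of hcard N)

/-- Artin-type independence. -/
theorem indep_aux (ρ : Representation k G W) (U : Submodule k W) (hU : ∀ g x, x ∈ U → ρ g x ∈ U)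
    {A R : Subgroup G} [hA : A.Normal]
    (hcomm : ∀ a ∈ A, ∀ b ∈ A, ∀ x, ρ a (ρ b x) = ρ b (ρ a x))
    (hfpf : ∀ h ∈ R, h ≠ 1 → ∀ n ∈ A, h * n = n * h → n = 1)
    (hfix : ∀ y ∈ U, (∀ a ∈ A, ρ a y = y) → y = 0) (S : Finset G) :
    (∀ h ∈ S, h ∈ R) → ∀ y : G → W, (∀ h ∈ S, y h ∈ U) →
      (∀ a ∈ A, ∑ h ∈ S, ρ (h * a * h⁻¹) (y h) = 0) → ∀ h ∈ S, y h = 0 := by
  classical
  induction S using Finset.induction_on with
  | empty => simp
  | insert h₀ S' hh₀ ih =>
    intro hS y hy hrel
    have hS' : ∀ h ∈ S', h ∈ R := fun h hh => hS h (Finset.mem_insert_of_mem hh)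
    have hy' : ∀ h ∈ S', y h ∈ U := fun h hh => hy h (Finset.mem_insert_of_mem hh)
    have hh0R : h₀ ∈ R := hS h₀ (Finset.mem_insert_self _ _)
    -- shorter relation
    have hshort : ∀ b ∈ A, ∀ h ∈ S', ρ (h * b * h⁻¹) (y h) - ρ (h₀ * b * h₀⁻¹) (y h) = 0 := by
      intro b hb
      apply ih hS' (fun h => ρ (h * b * h⁻¹) (y h) - ρ (h₀ * b * h₀⁻¹) (y h))
      · intro h hh
        exact U.sub_mem (hU _ _ (hy' h hh)) (hU _ _ (hy' h hh))
      · intro a ha
        have e1 := hrel (a * b) (A.mul_mem ha hb)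
        have e2 := congrArg (ρ (h₀ * b * h₀⁻¹)) (hrel a ha)
        rw [map_zero, map_sum] at e2
        rw [Finset.sum_insert hh₀] at e1 e2
        have hA1 : ∀ h : G, h * a * h⁻¹ ∈ A := fun h => hA.conj_mem a ha h
        have hA2 : ∀ h : G, h * b * h⁻¹ ∈ A := fun h => hA.conj_mem b hb h
        have e3 : ∀ h, ρ (h * (a * b) * h⁻¹) (y h) = ρ (h * a * h⁻¹) (ρ (h * b * h⁻¹) (y h)) := by
          intro h
          rw [← Module.End.mul_apply, ← map_mul]
          congr 2
          group
        have e4 : ∀ h, ρ (h₀ * b * h₀⁻¹) (ρ (h * a * h⁻¹) (y h))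
            = ρ (h * a * h⁻¹) (ρ (h₀ * b * h₀⁻¹) (y h)) := by
          intro h
          exact hcomm _ (hA2 h₀) _ (hA1 h) _
        simp only [e3] at e1
        simp only [e4] at e2
        have : ∑ h ∈ S', ρ (h * a * h⁻¹) (ρ (h * b * h⁻¹) (y h) - ρ (h₀ * b * h₀⁻¹) (y h))
            = (ρ (h₀ * a * h₀⁻¹) (ρ (h₀ * b * h₀⁻¹) (y h₀))
                + ∑ h ∈ S', ρ (h * a * h⁻¹) (ρ (h * b * h⁻¹) (y h)))
              - (ρ (h₀ * a * h₀⁻¹) (ρ (h₀ * b * h₀⁻¹) (y h₀))
                + ∑ h ∈ S', ρ (h * a * h⁻¹) (ρ (h₀ * b * h₀⁻¹) (y h))) := by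
          simp only [map_sub, Finset.sum_sub_distrib]
          abel
        rw [this, e1, e2, sub_zero]
    have hzero : ∀ h ∈ S', y h = 0 := by
      intro h hh
      apply hfix _ (hy' h hh)
      -- t = h₀ h⁻¹
      have hne : h₀ * h⁻¹ ≠ 1 := by
        intro h1
        have : h₀ = h := by
          rw [mul_inv_eq_one] at h1
          exact h1
        exact hh₀ (this ▸ hh)
      have htR : h₀ * h⁻¹ ∈ R := R.mul_mem hh0R (R.inv_mem (hS' h hh))
      set t := h₀ * h⁻¹ with ht
      have hc1 : ∀ c ∈ A, ρ c (y h) = ρ (t * c * t⁻¹) (y h) := by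
        intro c hc
        have hb : h⁻¹ * c * h ∈ A := by
          have := hA.conj_mem c hc h⁻¹
          simpa using this
        have := hshort _ hb h hh
        rw [sub_eq_zero] at this
        have e1 : h * (h⁻¹ * c * h) * h⁻¹ = c := by group
        have e2 : h₀ * (h⁻¹ * c * h) * h₀⁻¹ = t * c * t⁻¹ := by
          rw [ht]
          group
        rwa [e1, e2] at this
      -- surjectivity of c ↦ c⁻¹ t c t⁻¹
      let f : A → A := fun c => ⟨(c : G)⁻¹ * (t * c * t⁻¹), A.mul_mem (A.inv_mem c.2) (hA.conj_mem _ c.2 t)⟩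
      have hf : Function.Injective f := by
        intro c d hcd
        have h2 : (c : G)⁻¹ * (t * c * t⁻¹) = (d : G)⁻¹ * (t * d * t⁻¹) := congrArg Subtype.val hcd
        have h3 : t * ((d : G) * (c : G)⁻¹) = ((d : G) * (c : G)⁻¹) * t := by
          have h4 : (c : G)⁻¹ * t * c = (d : G)⁻¹ * t * d := by
            have := congrArg (· * t) h2
            simpa [mul_assoc] using this
          calc t * ((d : G) * (c : G)⁻¹) = (d : G) * ((d : G)⁻¹ * t * d) * (c : G)⁻¹ := by group
            _ = (d : G) * ((c : G)⁻¹ * t * c) * (c : G)⁻¹ := by rw [h4]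
            _ = ((d : G) * (c : G)⁻¹) * t := by group
        have h5 := hfpf t htR hne _ (A.mul_mem d.2 (A.inv_mem c.2)) h3
        apply Subtype.ext
        exact (mul_inv_eq_one.1 h5).symm
      have hfs : Function.Surjective f := Finite.surjective_of_injective hf
      intro a ha
      obtain ⟨c, hc⟩ := hfs ⟨a, ha⟩
      have hc' : (c : G)⁻¹ * (t * c * t⁻¹) = a := congrArg Subtype.val hc
      rw [← hc', map_mul, Module.End.mul_apply, ← hc1 _ c.2, ← Module.End.mul_apply, ← map_mul]
      simp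
    intro h hh
    rw [Finset.mem_insert] at hh
    rcases hh with rfl | hh
    · have := hrel 1 A.one_mem
      rw [Finset.sum_insert hh₀, Finset.sum_eq_zero] at this
      · simpa using this
      · intro h' hh'
        rw [hzero h' hh', map_zero]
    · exact hzero h hh

/-- The trace over `R`. -/
noncomputable def tr (ρ : Representation k G W) (R : Subgroup G) : W →ₗ[k] W :=
  letI := Fintype.ofFinite R
  ∑ h : R, ρ (h : G)

theorem tr_apply (ρ : Representation k G W) (R : Subgroup G) [Fintype R] (x : W) :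
    tr ρ R x = ∑ h : R, ρ (h : G) x := by
  unfold tr
  rw [LinearMap.sum_apply]
  apply Finset.sum_congr
  · ext b
    simp
  · intros
    rfl

theorem tr_fixed (ρ : Representation k G W) (R : Subgroup G) (x : W) (h : G) (hh : h ∈ R) :
    ρ h (tr ρ R x) = tr ρ R x := by
  classical
  haveI := Fintype.ofFinite R
  rw [tr_apply, map_sum]
  have : ∀ c : R, ρ h (ρ (c : G) x) = ρ (((⟨h, hh⟩ : R) * c : R) : G) x := by
    intro c
    simp [map_mul]
  simp only [this]
  exact Fintype.sum_equiv (Equiv.mulLeft (⟨h, hh⟩ : R)) _ _ (fun _ => rfl)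

theorem tr_mem (ρ : Representation k G W) (U : Submodule k W) (hU : ∀ g x, x ∈ U → ρ g x ∈ U)
    (R : Subgroup G) (x : W) (hx : x ∈ U) : tr ρ R x ∈ U := by
  classical
  haveI := Fintype.ofFinite R
  rw [tr_apply]
  exact U.sum_mem (fun h _ => hU _ _ hx)

theorem exists_tr_ne (ρ : Representation k G W) (U : Submodule k W) (hU : ∀ g x, x ∈ U → ρ g x ∈ U)
    {A R : Subgroup G} [A.Normal]
    (hcomm : ∀ a ∈ A, ∀ b ∈ A, ∀ x, ρ a (ρ b x) = ρ b (ρ a x))
    (hfpf : ∀ h ∈ R, h ≠ 1 → ∀ n ∈ A, h * n = n * h → n = 1)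
    (hfix : ∀ y ∈ U, (∀ a ∈ A, ρ a y = y) → y = 0) (x : W) (hx : x ∈ U) (hne : x ≠ 0) :
    ∃ a ∈ A, tr ρ R (ρ a x) ≠ 0 := by
  classical
  haveI := Fintype.ofFinite R
  by_contra hcon
  push Not at hcon
  apply hne
  have := indep_aux ρ U hU hcomm hfpf hfix
    ((Finset.univ : Finset R).map ⟨Subtype.val, Subtype.val_injective⟩)
    (by
      intro h hh
      rw [Finset.mem_map] at hh
      obtain ⟨c, -, rfl⟩ := hh
      exact c.2)
    (fun h => ρ h x)
    (fun h _ => hU _ _ hx)
    (by
      intro a ha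
      rw [Finset.sum_map]
      have h1 := hcon a ha
      rw [tr_apply] at h1
      rw [← h1]
      apply Finset.sum_congr rfl
      intro c _
      show ρ ((c : G) * a * (c : G)⁻¹) (ρ (c : G) x) = _
      rw [← Module.End.mul_apply, ← map_mul, ← Module.End.mul_apply, ← map_mul]
      congr 2
      group)
    1 (by
      rw [Finset.mem_map]
      exact ⟨1, Finset.mem_univ _, rfl⟩)
  simpa using this

/-- The main theorem. -/
theorem core [FiniteDimensional k W] (ρ : Representation k G W) {N R : Subgroup G} [hNn : N.Normal]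
    (hc : N.IsComplement' R) (hfpf : ∀ h ∈ R, h ≠ 1 → ∀ n ∈ N, h * n = n * h → n = 1)
    (hnil : Group.IsNilpotent N) (hcard : ((Nat.card G : ℕ) : k) ≠ 0)
    (hdim : ∀ x y : W, x ≠ 0 → (∀ h ∈ R, ρ h x = x) → (∀ h ∈ R, ρ h y = y) → ∃ c : k, y = c • x) :
    ∀ a ∈ N, ∀ b ∈ N, ρ (a * b) = ρ (b * a) := by
  classical
  by_cases htriv : ∀ n ∈ N, ρ n = 1
  · intro a ha b hb
    rw [map_mul, map_mul, htriv a ha, htriv b hb]
  push Not at htriv
  -- the lower central series inside G
  let B : ℕ → Subgroup G := fun i => N.lowerCentralSeries i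
  have hBs : ∀ i, B (i + 1) = ⁅B i, N⁆ := fun _ => rfl
  have hBn : ∀ i, (B i).Normal := by
    intro i
    induction i with
    | zero => exact hNn
    | succ i ih =>
      haveI := ih
      rw [hBs]
      exact Subgroup.commutator_normal (B i) N
  have hBle : ∀ i, B i ≤ N := by
    intro i
    induction i with
    | zero => exact le_rfl
    | succ i _ =>
      rw [hBs]
      exact Subgroup.commutator_le_right _ _
  obtain ⟨m, hm⟩ := (Subgroup.isNilpotent_iff_lowerCentralSeries N).1 hnil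
  have hBm : ∀ g ∈ B m, ρ g = 1 := by
    intro g hg
    have : g ∈ N.lowerCentralSeries m := hg
    rw [hm, Subgroup.mem_bot] at this
    rw [this, map_one]
  have hex : ∃ i, ∀ g ∈ B i, ρ g = 1 := ⟨m, hBm⟩
  have hfind := Nat.find_spec hex
  have hmin := fun j => Nat.find_min hex (m := j)
  set i₀ := Nat.find hex with hi₀
  have hpos : i₀ ≠ 0 := by
    intro h0
    rw [h0] at hfind
    obtain ⟨n, hn, hn1⟩ := htriv
    exact hn1 (hfind n hn)
  obtain ⟨i, hi⟩ := Nat.exists_eq_succ_of_ne_zero hpos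
  have hni : ¬ ∀ g ∈ B i, ρ g = 1 := hmin i (by omega)
  have hsucc : ∀ g ∈ B (i + 1), ρ g = 1 := by
    have := hfind
    rw [hi] at this
    exact this
  set A := B i with hAdef
  haveI hAn : A.Normal := hBn i
  have hAN : A ≤ N := hBle i
  -- A commutes with N modulo the kernel
  have hAcomm : ∀ a ∈ A, ∀ n ∈ N, ρ (a * n) = ρ (n * a) := by
    intro a ha n hn
    have h1 : ⁅a, n⁆ ∈ B (i + 1) := by
      rw [hBs]
      exact Subgroup.commutator_mem_commutator ha hn
    have h2 := hsucc _ h1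
    have h3 : a * n = ⁅a, n⁆ * (n * a) := by
      rw [commutatorElement_def]
      group
    rw [h3, map_mul, h2, one_mul]
  have hfpfA : ∀ h ∈ R, h ≠ 1 → ∀ n ∈ A, h * n = n * h → n = 1 :=
    fun h hh hne n hn => hfpf h hh hne n (hAN hn)
  have hcommA : ∀ a ∈ A, ∀ b ∈ A, ∀ x, ρ a (ρ b x) = ρ b (ρ a x) := by
    intro a ha b hb x
    have := hAcomm a ha b (hAN hb)
    rw [map_mul, map_mul] at this
    exact LinearMap.congr_fun this x
  set U := LinearMap.ker (av ρ N) with hUdef
  have hUinv : ∀ g x, x ∈ U → ρ g x ∈ U := fun g x hx => ker_av_invariant ρ N g x hx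
  have hUN : ∀ x ∈ U, (∀ n ∈ N, ρ n x = x) → x = 0 := by
    intro x hx hfx
    have h1 := av_eq_of_fixed ρ hcard N x hfx
    rw [LinearMap.mem_ker.1 hx] at h1
    exact h1.symm
  -- a vector of U moved by A
  push Not at hni
  obtain ⟨a₀, ha₀, ha₀1'⟩ := hni
  obtain ⟨z, hz⟩ : ∃ z, ρ a₀ z ≠ z := by
    by_contra hcon
    push Not at hcon
    exact ha₀1' (LinearMap.ext hcon)
  set u := z - av ρ N z with hu
  have huU : u ∈ U := sub_av_mem_ker ρ hcard N z
  have hau : ρ a₀ u ≠ u := by
    intro h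
    apply hz
    rw [hu, map_sub, av_fixed ρ hcard N z a₀ (hAN ha₀), sub_left_inj] at h
    exact h
  have hu0 : u ≠ 0 := by
    intro h
    rw [h, map_zero] at hau
    exact hau rfl
  -- fixed points of A on U vanish
  have hav_mem : ∀ x ∈ U, av ρ A x ∈ U := by
    intro x hx
    haveI := Fintype.ofFinite A
    rw [av_apply]
    exact U.smul_mem _ (U.sum_mem (fun b _ => hUinv _ _ hx))
  have hfixA : ∀ y ∈ U, (∀ a ∈ A, ρ a y = y) → y = 0 := by
    intro y hy hfx
    by_contra hy0
    -- U₁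
    let U₁ : Submodule k W :=
      { carrier := {x | x ∈ U ∧ ∀ a ∈ A, ρ a x = x}
        add_mem' := fun {x y} hx hy => ⟨U.add_mem hx.1 hy.1, fun a ha => by
          rw [map_add, hx.2 a ha, hy.2 a ha]⟩
        zero_mem' := ⟨U.zero_mem, fun a _ => map_zero _⟩
        smul_mem' := fun c x hx => ⟨U.smul_mem c hx.1, fun a ha => by
          rw [map_smul, hx.2 a ha]⟩ }
    let U₂ : Submodule k W := U ⊓ LinearMap.ker (av ρ A)
    have hU₁inv : ∀ g x, x ∈ U₁ → ρ g x ∈ U₁ := by
      intro g x hx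
      refine ⟨hUinv _ _ hx.1, fun a ha => ?_⟩
      have h1 : g⁻¹ * a * g ∈ A := by
        have := hAn.conj_mem a ha g⁻¹
        simpa using this
      have h2 := hx.2 _ h1
      calc ρ a (ρ g x) = ρ g (ρ (g⁻¹ * a * g) x) := by
            rw [← Module.End.mul_apply, ← map_mul, ← Module.End.mul_apply, ← map_mul]
            congr 2
            group
        _ = ρ g x := by rw [h2]
    have hU₂inv : ∀ g x, x ∈ U₂ → ρ g x ∈ U₂ := fun g x hx =>
      ⟨hUinv _ _ hx.1, ker_av_invariant ρ A g x hx.2⟩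
    have hU₁ne : U₁ ≠ ⊥ := by
      intro h
      have : y ∈ U₁ := ⟨hy, hfx⟩
      rw [h, Submodule.mem_bot] at this
      exact hy0 this
    have hu2 : u - av ρ A u ∈ U₂ := ⟨U.sub_mem huU (hav_mem u huU), sub_av_mem_ker ρ hcard A u⟩
    have hU₂ne : U₂ ≠ ⊥ := by
      intro h
      rw [h, Submodule.mem_bot, sub_eq_zero] at hu2
      apply hau
      rw [hu2]
      exact av_fixed ρ hcard A u a₀ ha₀
    obtain ⟨x₁, hx₁, hx₁0, hx₁R⟩ := exists_fixed ρ hcard hc hfpf U₁ hU₁inv
      (fun x hx h => hUN x hx.1 h) hU₁ne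
    obtain ⟨x₂, hx₂, hx₂0, hx₂R⟩ := exists_fixed ρ hcard hc hfpf U₂ hU₂inv
      (fun x hx h => hUN x hx.1 h) hU₂ne
    obtain ⟨c, hc'⟩ := hdim x₁ x₂ hx₁0 hx₁R hx₂R
    have h1 : x₂ ∈ U₁ := by
      rw [hc']
      exact U₁.smul_mem c hx₁
    have h2 := av_eq_of_fixed ρ hcard A x₂ h1.2
    rw [LinearMap.mem_ker.1 hx₂.2] at h2
    exact hx₂0 h2.symm
  -- the functional
  obtain ⟨a₁, ha₁, hne₁⟩ := exists_tr_ne ρ U hUinv hcommA hfpfA hfixA u huU hu0
  set w := tr ρ R (ρ a₁ u) with hw
  have hwU : w ∈ U := tr_mem ρ U hUinv R _ (hUinv _ _ huU)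
  have hwR : ∀ h ∈ R, ρ h w = w := fun h hh => tr_fixed ρ R _ h hh
  obtain ⟨μ, hμ⟩ : ∃ μ : Module.Dual k U, μ ⟨w, hwU⟩ = 1 := by
    have hne : (⟨w, hwU⟩ : U) ≠ 0 := by
      intro h
      exact hne₁ (congrArg Subtype.val h)
    have h2 : ¬ ∀ f : Module.Dual k U, f ⟨w, hwU⟩ = 0 := by
      rw [Module.forall_dual_apply_eq_zero_iff]
      exact hne
    push Not at h2
    obtain ⟨f, hf⟩ := h2
    refine ⟨(f ⟨w, hwU⟩)⁻¹ • f, ?_⟩
    rw [LinearMap.smul_apply, smul_eq_mul, inv_mul_cancel₀ hf]
  let trU : U →ₗ[k] U := (tr ρ R).restrict (fun x hx => tr_mem ρ U hUinv R x hx)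
  let res : G → Module.End k U := fun g => (ρ g).restrict (fun x hx => hUinv g x hx)
  have hres : ∀ g (x : U), ((res g x : U) : W) = ρ g x := fun _ _ => rfl
  let S : Set (Module.End k U) := res '' (A : Set G)
  have hlam : ∀ x : U, x ≠ 0 → ∃ a ∈ S, (μ.comp trU) (a x) ≠ 0 := by
    intro x hx
    have hx' : (x : W) ≠ 0 := fun h => hx (Subtype.ext h)
    obtain ⟨a, ha, hne⟩ := exists_tr_ne ρ U hUinv hcommA hfpfA hfixA x x.2 hx'
    refine ⟨res a, ⟨a, ha, rfl⟩, ?_⟩
    have hfx : ∀ h ∈ R, ρ h (tr ρ R (ρ a x)) = tr ρ R (ρ a x) := fun h hh => tr_fixed ρ R _ h hh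
    obtain ⟨c, hc'⟩ := hdim w (tr ρ R (ρ a x)) hne₁ hwR hfx
    have h1 : trU (res a x) = c • (⟨w, hwU⟩ : U) := by
      apply Subtype.ext
      show tr ρ R (ρ a x) = c • w
      exact hc'
    show μ (trU (res a x)) ≠ 0
    rw [h1, map_smul, hμ, smul_eq_mul, mul_one]
    intro h0
    apply hne
    rw [hc', h0, zero_smul]
  have hmain : ∀ a ∈ N, ∀ b ∈ N, Commute (res a) (res b) := by
    intro a ha b hb
    apply commute_of_pairing S _ (μ.comp trU) hlam
    · rintro _ ⟨c, hc', rfl⟩
      apply LinearMap.ext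
      intro x
      apply Subtype.ext
      show ρ c (ρ a x) = ρ a (ρ c x)
      have := hAcomm c hc' a ha
      rw [map_mul, map_mul] at this
      exact LinearMap.congr_fun this _
    · rintro _ ⟨c, hc', rfl⟩
      apply LinearMap.ext
      intro x
      apply Subtype.ext
      show ρ c (ρ b x) = ρ b (ρ c x)
      have := hAcomm c hc' b hb
      rw [map_mul, map_mul] at this
      exact LinearMap.congr_fun this _
    · rintro _ ⟨c, hc', rfl⟩ _ ⟨d, hd', rfl⟩
      apply LinearMap.ext
      intro x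
      apply Subtype.ext
      show ρ c (ρ d x) = ρ d (ρ c x)
      exact hcommA c hc' d hd' _
  intro a ha b hb
  apply LinearMap.ext
  intro x
  rw [map_mul, map_mul, Module.End.mul_apply, Module.End.mul_apply]
  have hx : x = av ρ N x + (x - av ρ N x) := by abel
  have hV : x - av ρ N x ∈ U := sub_av_mem_ker ρ hcard N x
  have h1 : ρ a (ρ b (x - av ρ N x)) = ρ b (ρ a (x - av ρ N x)) := by
    have := LinearMap.congr_fun (hmain a ha b hb).eq ⟨_, hV⟩
    exact congrArg Subtype.val this
  have h2 : ρ b (av ρ N x) = av ρ N x := av_fixed ρ hcard N x b hb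
  have h3 : ρ a (av ρ N x) = av ρ N x := av_fixed ρ hcard N x a ha
  rw [hx, map_add, map_add, map_add, map_add, h1, h2, h3, h2]

end Cfsg.Agent.Lib.FrobRep
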